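import Mathlib
import Cfsg.Agent.Lib.Helper55.QSim.R35Defs
import Cfsg.Agent.Lib.Helper11.QSim.Tools
import Cfsg.Agent.Lib.Helper11.QSim.Inv
import Cfsg.Agent.Lib.Helper44.DiagIso

/-!
# QSim (S5981), packages [R35W3], [R35W5]

A non-degenerate quadratic form in 3 (5) variables over a finite field of odd order is equivalent
to `x₀ x₁ + a x₂²` (`x₀ x₁ + x₂ x₃ + a x₄²`).  From an orthogonal basis (`orth_basis`) by the
explicit substitution `tern`: if `a₀ p₀² + a₁ p₁² + a₂ = 0` then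
`a₀ c₀² + a₁ c₁² + a₂ c₂² = x y - a₀ a₁ a₂ z²` for
`c₀ = (x / (2 a₂) - y / 2) p₀ + z a₁ p₁`, `c₁ = (x / (2 a₂) - y / 2) p₁ - z a₀ p₀`,
`c₂ = x / (2 a₂) + y / 2`.
-/

set_option autoImplicit false
open scoped MatrixGroups Matrix

namespace Cfsg.Agent.Lib.Helper8.QSim

universe u

variable {F : Type u} [Field F]

/-- first coordinate of the ternary substitution -/
def t0 (a1 a2 p0 p1 x y z : F) : F := x * p0 / (2 * a2) - y * p0 / 2 + z * a1 * p1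

/-- second coordinate of the ternary substitution -/
def t1 (a0 a2 p0 p1 x y z : F) : F := x * p1 / (2 * a2) - y * p1 / 2 - z * a0 * p0

/-- third coordinate of the ternary substitution -/
def t2 (a2 x y : F) : F := x / (2 * a2) + y / 2

theorem tern (h2 : (2 : F) ≠ 0) (a0 a1 a2 p0 p1 : F) (ha2 : a2 ≠ 0)
    (hp : a0 * p0 ^ 2 + a1 * p1 ^ 2 + a2 = 0) (x y z : F) :
    a0 * t0 a1 a2 p0 p1 x y z ^ 2 + a1 * t1 a0 a2 p0 p1 x y z ^ 2 + a2 * t2 a2 x y ^ 2 =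
      x * y + (-(a0 * a1 * a2)) * z ^ 2 := by
  have key : a2 * ((x / (2 * a2) + y / 2) ^ 2 - (x / (2 * a2) - y / 2) ^ 2) = x * y := by
    field_simp
    ring
  unfold t0 t1 t2
  linear_combination ((x / (2 * a2) - y / 2) ^ 2 + a0 * a1 * z ^ 2) * hp + key

/-- the ternary substitution as a linear map -/
def lin3 (a0 a1 a2 p0 p1 : F) : (Fin 3 → F) →ₗ[F] (Fin 3 → F) where
  toFun v := ![t0 a1 a2 p0 p1 (v 0) (v 1) (v 2), t1 a0 a2 p0 p1 (v 0) (v 1) (v 2),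
    t2 a2 (v 0) (v 1)]
  map_add' x y := by
    ext i
    fin_cases i <;> simp [t0, t1, t2] <;> ring
  map_smul' c x := by
    ext i
    fin_cases i <;> simp [t0, t1, t2] <;> ring

/-- two ternary substitutions in dimension 5 -/
def lin5 (a0 a1 a2 a3 a4 p0 p1 r0 r1 : F) : (Fin 5 → F) →ₗ[F] (Fin 5 → F) where
  toFun v := ![t0 a1 a2 p0 p1 (v 0) (v 1) (t0 a3 a4 r0 r1 (v 2) (v 3) (v 4)),
    t1 a0 a2 p0 p1 (v 0) (v 1) (t0 a3 a4 r0 r1 (v 2) (v 3) (v 4)),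
    t2 a2 (v 0) (v 1),
    t1 (-(a0 * a1 * a2)) a4 r0 r1 (v 2) (v 3) (v 4),
    t2 a4 (v 2) (v 3)]
  map_add' x y := by
    ext i
    fin_cases i <;> simp [t0, t1, t2] <;> ring
  map_smul' c x := by
    ext i
    fin_cases i <;> simp [t0, t1, t2] <;> ring

theorem isUnit_of_form {n : ℕ} (Q T : (Fin n → F) → F) (G : Matrix (Fin n) (Fin n) F)
    (h : ∀ v, Q (G *ᵥ v) = T v) (hT : ∀ v, (∀ u, T (u + v) = T u) → v = 0) : IsUnit G := by
  rw [← Matrix.mulVec_injective_iff_isUnit]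
  intro v w hvw
  have hvw' : G *ᵥ v = G *ᵥ w := hvw
  have h0 : v - w = 0 := by
    apply hT
    intro u
    rw [← h, ← h, Matrix.mulVec_add, Matrix.mulVec_sub, hvw', sub_self, add_zero]
  exact sub_eq_zero.mp h0

/-- [R35W3] -/
theorem pkgR35W3 : Cfsg.Agent.Lib.Helper55.QSim.PkgR35W3.{u} := by
  intro F _ _ Q hodd hQ
  have h2 : (2 : F) ≠ 0 := Cfsg.Agent.Lib.Helper11.QSim.two_ne_zero_of_odd hodd
  obtain ⟨P, P', a, hPP', hP'P, ha, hQP⟩ :=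
    Cfsg.Agent.Lib.Helper11.QSim.orth_basis h2 Q hQ (Equiv.refl (Fin 3))
  obtain ⟨p0, p1, hp⟩ :=
    Cfsg.Agent.Lib.Helper44.exists_binary_rep hodd (a 0) (a 1) (-(a 2)) (ha 0) (ha 1)
  have hp' : a 0 * p0 ^ 2 + a 1 * p1 ^ 2 + a 2 = 0 := by linear_combination hp
  obtain ⟨N, hN⟩ : ∃ N : Matrix (Fin 3) (Fin 3) F,
      N = LinearMap.toMatrix' (lin3 (a 0) (a 1) (a 2) p0 p1) := ⟨_, rfl⟩
  have hb : -(a 0 * a 1 * a 2) ≠ 0 :=
    neg_ne_zero.mpr (mul_ne_zero (mul_ne_zero (ha 0) (ha 1)) (ha 2))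
  have hform : ∀ v : Fin 3 → F,
      Q ((P * N) *ᵥ v) = v 0 * v 1 + (-(a 0 * a 1 * a 2)) * v 2 ^ 2 := by
    intro v
    rw [← Matrix.mulVec_mulVec, hN, LinearMap.toMatrix'_mulVec, hQP, Fin.sum_univ_three]
    exact tern h2 (a 0) (a 1) (a 2) p0 p1 (ha 2) hp' (v 0) (v 1) (v 2)
  have hu : IsUnit (P * N) := by
    refine isUnit_of_form Q _ _ hform ?_
    intro v hv
    have e0 := hv 0
    have e1 := hv ![1, 0, 0]
    have e2 := hv ![0, 1, 0]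
    have e3 := hv ![0, 0, 1]
    simp at e0 e1 e2 e3
    have hv1 : v 1 = 0 := by linear_combination e1 - e0
    have hv0 : v 0 = 0 := by linear_combination e2 - e0
    have hv2 : v 2 = 0 := by
      have h5 : 2 * (-(a 0 * a 1 * a 2)) * v 2 = 0 := by linear_combination e3 - e0
      rcases mul_eq_zero.mp h5 with h6 | h6
      · exact absurd h6 (mul_ne_zero h2 hb)
      · exact h6
    funext i
    fin_cases i
    · exact hv0
    · exact hv1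
    · exact hv2
  refine ⟨hu.unit, -(a 0 * a 1 * a 2), fun v => ?_⟩
  rw [IsUnit.unit_spec]
  exact hform v

/-- [R35W5] -/
theorem pkgR35W5 : Cfsg.Agent.Lib.Helper55.QSim.PkgR35W5.{u} := by
  intro F _ _ Q hodd hQ
  have h2 : (2 : F) ≠ 0 := Cfsg.Agent.Lib.Helper11.QSim.two_ne_zero_of_odd hodd
  obtain ⟨P, P', a, hPP', hP'P, ha, hQP⟩ :=
    Cfsg.Agent.Lib.Helper11.QSim.orth_basis h2 Q hQ (Equiv.refl (Fin 5))
  obtain ⟨p0, p1, hp⟩ :=
    Cfsg.Agent.Lib.Helper44.exists_binary_rep hodd (a 0) (a 1) (-(a 2)) (ha 0) (ha 1)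
  have hp' : a 0 * p0 ^ 2 + a 1 * p1 ^ 2 + a 2 = 0 := by linear_combination hp
  have hb : -(a 0 * a 1 * a 2) ≠ 0 :=
    neg_ne_zero.mpr (mul_ne_zero (mul_ne_zero (ha 0) (ha 1)) (ha 2))
  obtain ⟨r0, r1, hr⟩ :=
    Cfsg.Agent.Lib.Helper44.exists_binary_rep hodd (-(a 0 * a 1 * a 2)) (a 3) (-(a 4)) hb (ha 3)
  have hr' : -(a 0 * a 1 * a 2) * r0 ^ 2 + a 3 * r1 ^ 2 + a 4 = 0 := by linear_combination hr
  obtain ⟨N, hN⟩ : ∃ N : Matrix (Fin 5) (Fin 5) F,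
      N = LinearMap.toMatrix' (lin5 (a 0) (a 1) (a 2) (a 3) (a 4) p0 p1 r0 r1) := ⟨_, rfl⟩
  obtain ⟨γ, hγ⟩ : ∃ γ : F, γ = -(-(a 0 * a 1 * a 2) * a 3 * a 4) := ⟨_, rfl⟩
  have hγ0 : γ ≠ 0 := by
    rw [hγ]
    exact neg_ne_zero.mpr (mul_ne_zero (mul_ne_zero hb (ha 3)) (ha 4))
  have hform : ∀ v : Fin 5 → F,
      Q ((P * N) *ᵥ v) = v 0 * v 1 + v 2 * v 3 + γ * v 4 ^ 2 := by
    intro v
    rw [← Matrix.mulVec_mulVec, hN, LinearMap.toMatrix'_mulVec, hQP, Fin.sum_univ_five, hγ]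
    have h1 := tern h2 (a 0) (a 1) (a 2) p0 p1 (ha 2) hp' (v 0) (v 1)
      (t0 (a 3) (a 4) r0 r1 (v 2) (v 3) (v 4))
    have h3 := tern h2 (-(a 0 * a 1 * a 2)) (a 3) (a 4) r0 r1 (ha 4) hr' (v 2) (v 3) (v 4)
    show a 0 * t0 (a 1) (a 2) p0 p1 (v 0) (v 1) (t0 (a 3) (a 4) r0 r1 (v 2) (v 3) (v 4)) ^ 2 +
        a 1 * t1 (a 0) (a 2) p0 p1 (v 0) (v 1) (t0 (a 3) (a 4) r0 r1 (v 2) (v 3) (v 4)) ^ 2 +
        a 2 * t2 (a 2) (v 0) (v 1) ^ 2 +
        a 3 * t1 (-(a 0 * a 1 * a 2)) (a 4) r0 r1 (v 2) (v 3) (v 4) ^ 2 +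
        a 4 * t2 (a 4) (v 2) (v 3) ^ 2 = _
    linear_combination h1 + h3
  have hu : IsUnit (P * N) := by
    refine isUnit_of_form Q _ _ hform ?_
    intro v hv
    have e0 := hv 0
    have e1 := hv ![1, 0, 0, 0, 0]
    have e2 := hv ![0, 1, 0, 0, 0]
    have e3 := hv ![0, 0, 1, 0, 0]
    have e4 := hv ![0, 0, 0, 1, 0]
    have e5 := hv ![0, 0, 0, 0, 1]
    simp at e0 e1 e2 e3 e4 e5
    have hv1 : v 1 = 0 := by linear_combination e1 - e0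
    have hv0 : v 0 = 0 := by linear_combination e2 - e0
    have hv3 : v 3 = 0 := by linear_combination e3 - e0
    have hv2 : v 2 = 0 := by linear_combination e4 - e0
    have hv4 : v 4 = 0 := by
      have h5 : 2 * γ * v 4 = 0 := by linear_combination e5 - e0
      rcases mul_eq_zero.mp h5 with h6 | h6
      · exact absurd h6 (mul_ne_zero h2 hγ0)
      · exact h6
    funext i
    fin_cases i
    · exact hv0
    · exact hv1
    · exact hv2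
    · exact hv3
    · exact hv4
  refine ⟨hu.unit, γ, fun v => ?_⟩
  rw [IsUnit.unit_spec]
  exact hform v

end Cfsg.Agent.Lib.Helper8.QSim
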